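import Cfsg.Agent.Suzuki.Kinds
import Cfsg.Agent.Suzuki.LieModel
import Cfsg.Agent.RankThree.Model
import Cfsg.Agent.Classical.Linear.Card
import Cfsg.Agent.SL2.OddProductGraph

/-!
The facts about involutions of `L₂(q)`, `q` even, and `Sz(q)` used to exclude Suzuki spans of odd
transpositions.
-/

set_option autoImplicit false

namespace CfsgLib.RootInv99

variable {K : Type*} [Group K] {a b c g : K}

/-- One class of involutions, each commuting with `q - 1` involutions. -/
structure InvData (K : Type*) [Group K] (q : ℕ) : Prop where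
  conj : ∀ a b : K, orderOf a = 2 → orderOf b = 2 → IsConj a b
  invols : ∀ a : K, orderOf a = 2 → {b : K | orderOf b = 2 ∧ Commute b a}.ncard = q - 1

/-- What is used about `Sz(q)`. -/
structure SzLike (K : Type*) [Group K] (q : ℕ) : Prop where
  inv : InvData K q
  q_pow : ∃ m, 1 ≤ m ∧ q = 2 ^ (2 * m + 1)
  card : Nat.card K = q ^ 2 * (q ^ 2 + 1) * (q - 1)
  simple : IsSimpleGroup K
  cent_card : ∀ a : K, orderOf a = 2 → Nat.card (Subgroup.centralizer ({a} : Set K)) = q ^ 2
  cent_eq : ∀ a b : K, orderOf a = 2 → orderOf b = 2 → Commute a b →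
    Subgroup.centralizer ({a} : Set K) = Subgroup.centralizer ({b} : Set K)
  four : ∀ a : K, orderOf a = 2 → ∃ t, Commute t a ∧ orderOf t = 4
  torus : ∃ a b : K, orderOf a = 2 ∧ orderOf b = 2 ∧ orderOf (a * b) = q - 1

theorem orderOf_conj_eq (g x : K) : orderOf (g * x * g⁻¹) = orderOf x :=
  orderOf_injective (MulAut.conj g).toMonoidHom (MulAut.conj g).injective x

theorem InvData.of_equiv {K' : Type*} [Group K'] {q : ℕ} (h : InvData K q) (e : K' ≃* K) :
    InvData K' q where
  conj a b ha hb := by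
    obtain ⟨c, hc⟩ := isConj_iff.1 (h.conj (e a) (e b) (by simpa using ha) (by simpa using hb))
    exact isConj_iff.2 ⟨e.symm c, e.injective (by simpa using hc)⟩
  invols a ha := by
    rw [← h.invols (e a) (by simpa using ha)]
    refine Set.ncard_congr (fun b _ => e b) (fun b hb => ⟨by simpa using hb.1, hb.2.map e⟩)
      (fun x y _ _ hxy => e.injective hxy) fun b hb => ⟨e.symm b, ⟨by simpa using hb.1, ?_⟩, by simp⟩
    have := hb.2.map e.symm
    simpa using this

namespace SzLike

variable {q : ℕ} (h : SzLike K q)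

include h

theorem of_equiv {K' : Type*} [Group K'] (e : K' ≃* K) : SzLike K' q where
  inv := h.inv.of_equiv e
  q_pow := h.q_pow
  card := (Nat.card_congr e.toEquiv).trans h.card
  simple := by have := h.simple; exact MulEquiv.isSimpleGroup e
  cent_card a ha := by
    rw [← h.cent_card (e a) (by simpa using ha)]
    refine Nat.card_congr (e.toEquiv.subtypeEquiv fun x => ?_)
    simp only [Subgroup.mem_centralizer_singleton_iff, MulEquiv.toEquiv_eq_coe, EquivLike.coe_coe]
    rw [← map_mul, ← map_mul, e.injective.eq_iff]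
  cent_eq a b ha hb hab := by
    ext x
    have := SetLike.ext_iff.1 (h.cent_eq (e a) (e b) (by simpa using ha) (by simpa using hb)
      (hab.map e)) (e x)
    simpa [Subgroup.mem_centralizer_singleton_iff, ← map_mul] using this
  four a ha := by
    obtain ⟨t, ht, h4⟩ := h.four (e a) (by simpa using ha)
    have := ht.map e.symm
    exact ⟨e.symm t, by simpa using this, by simpa using h4⟩
  torus := by
    obtain ⟨a, b, ha, hb, hab⟩ := h.torus
    exact ⟨e.symm a, e.symm b, by simpa using ha, by simpa using hb,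
      by rw [← map_mul, MulEquiv.orderOf_eq, hab]⟩

theorem eight_le : 8 ≤ q := by
  obtain ⟨m, hm, rfl⟩ := h.q_pow
  calc 8 = 2 ^ 3 := rfl
    _ ≤ _ := Nat.pow_le_pow_right two_pos (by omega)

theorem finite : Finite K := Nat.finite_of_card_ne_zero (by
  have := h.eight_le
  rw [h.card]
  simp only [ne_eq, mul_eq_zero, pow_eq_zero_iff', not_or]
  omega)

/-- Commuting is transitive on involutions. -/
theorem trans (ha : orderOf a = 2) (hb : orderOf b = 2) (hab : Commute a b) (hcb : Commute c b) :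
    Commute c a := by
  have : c ∈ Subgroup.centralizer ({b} : Set K) := Subgroup.mem_centralizer_singleton_iff.2 hcb.eq
  rw [← h.cent_eq a b ha hb hab] at this
  exact Subgroup.mem_centralizer_singleton_iff.1 this

theorem pow_eq_one (ha : orderOf a = 2) (hg : Commute g a) : ∃ j, g ^ 2 ^ j = 1 := by
  obtain ⟨m, -, hq⟩ := h.q_pow
  refine ⟨(2 * m + 1) * 2, ?_⟩
  have h1 : orderOf g ∣ q ^ 2 := (Subgroup.orderOf_dvd_natCard _
    (Subgroup.mem_centralizer_singleton_iff.2 hg.eq)).trans (h.cent_card a ha).dvd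
  rw [← orderOf_dvd_iff_pow_eq_one, pow_mul, ← hq]
  exact h1

/-- A non-trivial element of the centraliser of an involution moves each involution outside it to
a non-commuting one. -/
theorem regular (ha : orderOf a = 2) (hb : orderOf b = 2) (hab : ¬ Commute a b) (hg : Commute g a)
    (hg1 : g ≠ 1) : ¬ Commute (g * b * g⁻¹) b := by
  classical
  intro hc
  have := h.finite
  have hb' : orderOf (g * b * g⁻¹) = 2 := by rw [orderOf_conj_eq, hb]
  have hceq := h.cent_eq _ _ hb' hb hc
  -- `g` normalises the centraliser of `b`, a Sylow 2-subgroup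
  have : Fact (Nat.Prime 2) := ⟨Nat.prime_two⟩
  set C := Subgroup.centralizer ({b} : Set K) with hC
  obtain ⟨m, hm, hq⟩ := h.q_pow
  have hC2 : IsPGroup 2 C := IsPGroup.of_card (n := (2 * m + 1) * 2) (by
    rw [hC, h.cent_card b hb, hq, ← pow_mul])
  have hnorm : g ∈ Subgroup.normalizer (C : Set K) := by
    rw [Subgroup.mem_normalizer_iff]
    intro x
    have key : x ∈ C ↔ g * x * g⁻¹ ∈ Subgroup.centralizer ({g * b * g⁻¹} : Set K) := by
      rw [hC, Subgroup.mem_centralizer_singleton_iff, Subgroup.mem_centralizer_singleton_iff,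
        show g * x * g⁻¹ * (g * b * g⁻¹) = g * (x * b) * g⁻¹ by group,
        show g * b * g⁻¹ * (g * x * g⁻¹) = g * (b * x) * g⁻¹ by group]
      exact ⟨fun e => by rw [e], fun e => mul_left_cancel (mul_right_cancel e)⟩
    rw [key, hceq]
  obtain ⟨e, he⟩ := h.pow_eq_one ha hg
  have hgp : IsPGroup 2 (Subgroup.zpowers g) := IsPGroup.of_card
    (n := (Nat.card (Subgroup.zpowers g)).factorization 2) (by
      rw [Nat.card_zpowers]
      obtain ⟨i, -, hi⟩ := (Nat.dvd_prime_pow Nat.prime_two).1 (orderOf_dvd_of_pow_eq_one he)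
      rw [hi, Nat.prime_two.factorization_pow, Finsupp.single_eq_same])
  have hsup : IsPGroup 2 (Subgroup.zpowers g ⊔ C : Subgroup K) :=
    hgp.to_sup_of_normal_right' hC2 (Subgroup.zpowers_le.2 hnorm)
  have hidx : ¬ 2 ∣ C.index := fun hd => by
    have h2 : Nat.card C * C.index = q ^ 2 * (q ^ 2 + 1) * (q - 1) :=
      C.card_mul_index.trans h.card
    have h8 := h.eight_le
    rw [hC, h.cent_card b hb, mul_assoc] at h2
    rw [hC, Nat.eq_of_mul_eq_mul_left (by positivity) h2] at hd
    have h2q : 2 ∣ q := hq ▸ dvd_pow_self 2 (by omega)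
    rcases (Nat.Prime.dvd_mul Nat.prime_two).1 hd with h' | h'
    · have : 2 ∣ q ^ 2 := dvd_pow h2q (by norm_num)
      omega
    · omega
  have hgC : g ∈ C := by
    let P : Sylow 2 K := hC2.toSylow hidx
    have h' := P.3 hsup (le_sup_right)
    have hg' : g ∈ (Subgroup.zpowers g ⊔ C : Subgroup K) :=
      Subgroup.mem_sup_left (Subgroup.mem_zpowers g)
    rw [h'] at hg'
    exact hg'
  -- an involution in `⟨g⟩` commutes with both
  have hgb : Commute g b := Subgroup.mem_centralizer_singleton_iff.1 hgC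
  obtain ⟨z, hz, hza, hzb⟩ : ∃ z, orderOf z = 2 ∧ Commute z a ∧ Commute z b := by
    obtain ⟨i, -, hi⟩ := (Nat.dvd_prime_pow Nat.prime_two).1 (orderOf_dvd_of_pow_eq_one he)
    have hi0 : i ≠ 0 := fun h0 => hg1 (orderOf_eq_one_iff.1 (by rw [hi, h0, pow_zero]))
    refine ⟨g ^ 2 ^ (i - 1), ?_, hg.pow_left _, hgb.pow_left _⟩
    rw [orderOf_pow' g (by positivity), hi,
      Nat.gcd_eq_right (pow_dvd_pow 2 (Nat.sub_le i 1)), Nat.pow_div (Nat.sub_le i 1) two_pos,
      show i - (i - 1) = 1 by omega, pow_one]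
  exact hab (h.trans hb hz hzb.symm hza.symm)

end SzLike

section Suzuki

open CfsgLib.Suzuki

variable {F : Type*} [Field F] [Fintype F] [CharP F 2] {m : ℕ}

theorem szLike_grp (hm : 1 ≤ m) (hF : Fintype.card F = 2 ^ (2 * m + 1)) :
    SzLike (grp (theta F m)) (Fintype.card F) := by
  set hT := titsEndo_theta hm hF
  have : Fact (Nat.Prime 2) := ⟨Nat.prime_two⟩
  have hcF : Nat.card F = Fintype.card F := Nat.card_eq_fintype_card
  have hne : ∀ b : F, b ≠ 0 → uElt hT 0 b ≠ 1 := fun b hb h => hb (by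
    rw [← uElt_zero hT, uElt_inj] at h; exact h.2)
  have ho : ∀ b : F, b ≠ 0 → orderOf (uElt hT 0 b) = 2 := fun b hb =>
    (orderOf_translation hT (hne b hb)).2 rfl
  -- the centraliser of a central translation
  have hcent : ∀ b : F, b ≠ 0 → Subgroup.centralizer ({uElt hT 0 b} : Set (grp (theta F m))) =
      uGrp hT := by
    intro b hb
    have hle : uGrp hT ≤ Subgroup.centralizer ({uElt hT 0 b} : Set (grp (theta F m))) := by
      rintro _ ⟨x, y, rfl⟩
      rw [Subgroup.mem_centralizer_singleton_iff, uElt_mul, uElt_mul, uElt_inj]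
      constructor <;> simp [add_comm]
    have hp : IsPGroup 2 (Subgroup.centralizer ({uElt hT 0 b} : Set (grp (theta F m)))) :=
      isPGroup_centralizer hm hF (hne b hb) (x := 1) (by simp [uElt_mem])
    exact (uSylow hT).3 hp hle
  have hconj : ∀ x : grp (theta F m), orderOf x = 2 → ∃ y, x = y * uElt hT 0 1 * y⁻¹ := fun x hx => by
    obtain ⟨y, hy⟩ := involution_normal_form hm hF hx
    exact ⟨y, by rw [← hy]; group⟩
  have hcC : ∀ (y z x : grp (theta F m)),
      x ∈ Subgroup.centralizer ({y * z * y⁻¹} : Set (grp (theta F m))) ↔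
        y⁻¹ * x * y ∈ Subgroup.centralizer ({z} : Set (grp (theta F m))) := fun y z x => by
    simp only [Subgroup.mem_centralizer_singleton_iff]
    constructor <;> intro h
    · have := congrArg (fun w => y⁻¹ * w * y) h
      simpa [mul_assoc] using this
    · have := congrArg (fun w => y * w * y⁻¹) h
      simpa [mul_assoc] using this
  -- the involutions commuting with a given one
  have hset : ∀ y : grp (theta F m),
      {b | orderOf b = 2 ∧ Commute b (y * uElt hT 0 1 * y⁻¹)} =
        (fun b : F => y * uElt hT 0 b * y⁻¹) '' {b | b ≠ 0} := by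
    intro y
    ext x
    constructor
    · rintro ⟨hx, hxc⟩
      have h1 := (hcC y _ x).1 (Subgroup.mem_centralizer_singleton_iff.2 hxc.eq)
      rw [hcent 1 one_ne_zero] at h1
      obtain ⟨a, b, hab⟩ := h1
      have h2 : orderOf (uElt hT a b) = 2 := by
        rw [← hab, show y⁻¹ * x * y = y⁻¹ * x * y⁻¹⁻¹ by group, orderOf_conj_eq, hx]
      have h3 : uElt hT a b ≠ 1 := fun h => by rw [h, orderOf_one] at h2; omega
      obtain rfl := (orderOf_translation hT h3).1 h2
      exact ⟨b, fun hb => h3 (by rw [hb, uElt_zero]), by simp only; rw [← hab]; group⟩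
    · rintro ⟨b, hb, rfl⟩
      refine ⟨by rw [orderOf_conj_eq]; exact ho b hb, ?_⟩
      refine Subgroup.mem_centralizer_singleton_iff.1 ((hcC y _ _).2 ?_)
      rw [hcent 1 one_ne_zero, show y⁻¹ * (y * uElt hT 0 b * y⁻¹) * y = uElt hT 0 b by group]
      exact uElt_mem hT 0 b
  refine
    { inv := ⟨fun a b ha hb => ?_, fun a ha => ?_⟩
      q_pow := ⟨m, hm, hF⟩
      card := by rw [card_grp hT, hcF]
      simple := isSimpleGroup hT
      cent_card := fun a ha => ?_
      cent_eq := fun a b ha hb hab => ?_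
      four := fun a ha => ?_
      torus := ?_ }
  · obtain ⟨y, rfl⟩ := hconj a ha
    obtain ⟨z, rfl⟩ := hconj b hb
    exact isConj_iff.2 ⟨z * y⁻¹, by group⟩
  · obtain ⟨y, rfl⟩ := hconj a ha
    rw [hset y, Set.ncard_image_of_injective _ fun b b' h =>
      ((uElt_inj hT).1 (mul_left_cancel (mul_right_cancel h))).2]
    rw [show {b : F | b ≠ 0} = {0}ᶜ from rfl, Set.ncard_compl, Set.ncard_singleton, hcF]
  · obtain ⟨y, rfl⟩ := hconj a ha
    rw [← hcF, ← card_uGrp hT, ← hcent 1 one_ne_zero]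
    exact Nat.card_congr ((MulAut.conj y⁻¹).toEquiv.subtypeEquiv fun x => by
      simpa using hcC y (uElt hT 0 1) x)
  · obtain ⟨y, rfl⟩ := hconj a ha
    have hb' : b ∈ {b | orderOf b = 2 ∧ Commute b (y * uElt hT 0 1 * y⁻¹)} := ⟨hb, hab.symm⟩
    rw [hset y] at hb'
    obtain ⟨s, hs, rfl⟩ := hb'
    ext x
    rw [hcC, hcC, hcent 1 one_ne_zero, hcent s hs]
  · obtain ⟨y, rfl⟩ := hconj a ha
    refine ⟨y * uElt hT 1 0 * y⁻¹, ?_, by rw [orderOf_conj_eq, orderOf_uElt_four hT 0 one_ne_zero]⟩
    refine Subgroup.mem_centralizer_singleton_iff.1 ((hcC y _ _).2 ?_)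
    rw [hcent 1 one_ne_zero, show y⁻¹ * (y * uElt hT 1 0 * y⁻¹) * y = uElt hT 1 0 by group]
    exact uElt_mem hT 1 0
  · haveI := isCyclic_tGrp hT
    obtain ⟨⟨_, t, rfl⟩, ht⟩ := IsCyclic.exists_ofOrder_eq_natCard (α := tGrp hT)
    rw [← Subgroup.orderOf_coe, card_tGrp, hcF] at ht
    change orderOf (tElt hT t) = _ at ht
    have hww := wElt_mul_self hT
    have hw1 : wElt hT ≠ 1 := fun h => wElt_not_mem_stabInf hT (h ▸ one_mem _)
    refine ⟨tElt hT t * wElt hT, wElt hT, orderOf_eq_prime ?_ fun h => ?_,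
      orderOf_eq_prime (by rw [pow_two]; exact hww) hw1, by rw [mul_assoc, hww, mul_one]; exact ht⟩
    · rw [pow_two, show tElt hT t * wElt hT * (tElt hT t * wElt hT) =
        tElt hT t * (wElt hT * tElt hT t * wElt hT) by group, wElt_tElt_wElt, tElt_mul, mul_inv_cancel,
        tElt_one]
    · refine wElt_not_mem_stabInf hT ?_
      rw [eq_inv_of_mul_eq_one_right h]
      exact inv_mem (tElt_mem_stabInf hT t)

end Suzuki

theorem szLike_of_iso {Y : Type*} [Group Y] (h : Cfsg.Lie.IsoSuzuki Y) :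
    ∃ q, SzLike Y q := by
  obtain ⟨F, hFi, hFt, m, hm, hF, ⟨e⟩⟩ := h
  letI := hFi; letI := hFt
  haveI := CfsgLib.Suzuki.charP_two hF
  exact ⟨_, (szLike_grp hm hF).of_equiv (e.trans ((CfsgLib.Suzuki.lieSzEquiv hm hF).symm.trans
    (MulEquiv.subgroupCongr CfsgLib.Suzuki.sz_eq)))⟩

section Linear

open CfsgLib.SL2

variable {F : Type*} [Field F] [Fintype F] [CharP F 2]

theorem invData_sl2 : InvData (Matrix.SpecialLinearGroup (Fin 2) F) (Fintype.card F) := by
  have : Fact (Nat.Prime 2) := ⟨Nat.prime_two⟩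
  have hu : ∀ x : Matrix.SpecialLinearGroup (Fin 2) F, orderOf x = 2 →
      ∃ y, x = y * u 1 * y⁻¹ := by
    intro x hx
    have hx1 : x ≠ 1 := fun h => by rw [h, orderOf_one] at hx; omega
    have htr : tr x = 0 := by
      refine tr_eq_zero_of_orderOf_two ?_
      rw [show (pmk x : Matrix.ProjectiveSpecialLinearGroup (Fin 2) F) =
        CAGroups.mulEquivPslOfSl2 F x from rfl, MulEquiv.orderOf_eq, hx]
    obtain ⟨s, hs, hxs⟩ := exists_isConj_u hx1 (htr.trans CharTwo.two_eq_zero.symm)
    have h1 : IsConj x (u (1 : F)) := hxs.trans (by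
      rw [u_eq_upperU, u_eq_upperU, Psl2Unipotent.isConj_upperU_iff hs one_ne_zero]
      exact FiniteField.isSquare_of_char_two (ringChar.eq F 2) _)
    obtain ⟨y, hy⟩ := isConj_iff.1 h1.symm
    exact ⟨y, hy.symm⟩
  refine ⟨fun a b ha hb => ?_, fun a ha => ?_⟩
  · obtain ⟨y, rfl⟩ := hu a ha
    obtain ⟨z, rfl⟩ := hu b hb
    exact isConj_iff.2 ⟨z * y⁻¹, by group⟩
  · obtain ⟨y, rfl⟩ := hu a ha
    rw [show {b | orderOf b = 2 ∧ Commute b (y * u (1 : F) * y⁻¹)} =
        (fun s : F => y * u s * y⁻¹) '' {0}ᶜ from ?_, Set.ncard_image_of_injective _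
        fun s t h => ?_, Set.ncard_compl, Set.ncard_singleton, Nat.card_eq_fintype_card]
    · exact u_injective (mul_left_cancel (mul_right_cancel h))
    ext x
    constructor
    · rintro ⟨hx, hxc⟩
      have h1 : y⁻¹ * x * y ∈ Subgroup.centralizer ({u (1 : F)} : Set _) := by
        rw [Subgroup.mem_centralizer_singleton_iff]
        have := congrArg (fun w => y⁻¹ * w * y) hxc.eq
        simpa [mul_assoc] using this
      rw [RankThree.centralizer_u one_ne_zero, mem_U] at h1
      obtain ⟨s, hs⟩ := h1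
      refine ⟨s, fun h0 => ?_, by simp only; rw [← hs]; group⟩
      rw [Set.mem_singleton_iff.1 h0, u_eq_one_iff.2 rfl, mul_eq_one_iff_eq_inv, inv_mul_eq_iff_eq_mul,
        mul_inv_cancel] at hs
      rw [hs, orderOf_one] at hx
      omega
    · rintro ⟨s, hs, rfl⟩
      refine ⟨by rw [orderOf_conj_eq]; exact orderOf_u hs, ?_⟩
      have h1 : u s ∈ Subgroup.centralizer ({u (1 : F)} : Set _) := by
        rw [RankThree.centralizer_u one_ne_zero]; exact u_mem_U s
      exact (Commute.conj_iff y).2 (Subgroup.mem_centralizer_singleton_iff.1 h1)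

theorem invData_psl {Y : Type*} [Group Y] (e : Y ≃* Matrix.ProjectiveSpecialLinearGroup (Fin 2) F) :
    InvData Y (Fintype.card F) :=
  invData_sl2.of_equiv (e.trans (CAGroups.mulEquivPslOfSl2 F).symm)

theorem card_psl_even {Y : Type*} [Group Y]
    (e : Y ≃* Matrix.ProjectiveSpecialLinearGroup (Fin 2) F) :
    Nat.card Y = Fintype.card F * (Fintype.card F ^ 2 - 1) := by
  rw [Nat.card_congr (e.trans (CAGroups.mulEquivPslOfSl2 F).symm).toEquiv,
    CfsgLib.Classical.Linear.card_sl_two]

/-- In `SL₂(q)`, `q` even, the elements of 2-power order are involutions. -/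
theorem sq_eq_one_psl {Y : Type*} [Group Y]
    (e : Y ≃* Matrix.ProjectiveSpecialLinearGroup (Fin 2) F) {y : Y} {k : ℕ} (hy : y ^ 2 ^ k = 1) :
    y ^ 2 = 1 := by
  have : Fact (Nat.Prime 2) := ⟨Nat.prime_two⟩
  set f := e.trans (CAGroups.mulEquivPslOfSl2 F).symm with hf
  refine f.injective ?_
  rw [map_pow, map_one]
  set g := f y
  have hg : g ^ 2 ^ k = 1 := by rw [← map_pow, hy, map_one]
  have h1 : ((g : Matrix (Fin 2) (Fin 2) F) - 1) ^ 2 ^ k = 0 := by
    rw [sub_pow_char_pow_of_commute 2 k (Commute.one_right _), one_pow, sub_eq_zero]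
    simpa using congrArg (fun x : Matrix.SpecialLinearGroup (Fin 2) F =>
      (x : Matrix (Fin 2) (Fin 2) F)) hg
  have hn : IsNilpotent ((g : Matrix (Fin 2) (Fin 2) F) - 1) := ⟨_, h1⟩
  have h2 := Matrix.aeval_self_charpoly ((g : Matrix (Fin 2) (Fin 2) F) - 1)
  rw [sub_eq_zero.1 (Matrix.isNilpotent_charpoly_sub_pow_of_isNilpotent hn).eq_zero] at h2
  have h3 : ((g : Matrix (Fin 2) (Fin 2) F) - 1) ^ 2 = 0 := by simpa using h2
  rw [sub_pow_char_of_commute 2 (Commute.one_right _), one_pow, sub_eq_zero] at h3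
  exact Subtype.ext (by simpa using h3)

end Linear

end CfsgLib.RootInv99
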